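import Mathlib

/-! Keys for elements of PSL(2, 11). -/

set_option autoImplicit false

namespace CfsgLib.MathieuIso

/-- An element of SL(2,11) with the given entries, if they have determinant 1. -/
def slKey (k : List ℕ) : Matrix.SpecialLinearGroup (Fin 2) (ZMod 11) :=
  ⟨if (!![(k.getD 0 0 : ZMod 11), (k.getD 1 0 : ZMod 11);
      (k.getD 2 0 : ZMod 11), (k.getD 3 0 : ZMod 11)]).det = 1 then
      !![(k.getD 0 0 : ZMod 11), (k.getD 1 0 : ZMod 11); (k.getD 2 0 : ZMod 11), (k.getD 3 0 : ZMod 11)]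
    else 1, by split_ifs with h; exacts [h, Matrix.det_one]⟩

/-- The determinant condition. -/
def detOK (k : List ℕ) : Bool :=
  (k.getD 0 0 * k.getD 3 0) % 11 == (k.getD 1 0 * k.getD 2 0 + 1) % 11

theorem coe_slKey {k : List ℕ} (h : detOK k = true) :
    (slKey k : Matrix (Fin 2) (Fin 2) (ZMod 11)) = !![(k.getD 0 0 : ZMod 11), (k.getD 1 0 : ZMod 11);
      (k.getD 2 0 : ZMod 11), (k.getD 3 0 : ZMod 11)] := by
  have hd : (!![(k.getD 0 0 : ZMod 11), (k.getD 1 0 : ZMod 11);
      (k.getD 2 0 : ZMod 11), (k.getD 3 0 : ZMod 11)]).det = 1 := by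
    rw [Matrix.det_fin_two_of, sub_eq_iff_eq_add']
    simp only [detOK, beq_iff_eq] at h
    have := congrArg (fun n : ℕ => (n : ZMod 11)) h
    simp only [ZMod.natCast_mod, Nat.cast_mul, Nat.cast_add, Nat.cast_one] at this
    exact this
  exact if_pos hd

/-- The product rule up to sign, on keys. -/
def prodOK (m a b : List ℕ) : Bool :=
  let g := fun (k : List ℕ) i => k.getD i 0
  let p := [(g a 0 * g b 0 + g a 1 * g b 2) % 11, (g a 0 * g b 1 + g a 1 * g b 3) % 11,
    (g a 2 * g b 0 + g a 3 * g b 2) % 11, (g a 2 * g b 1 + g a 3 * g b 3) % 11]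
  m == p || m == p.map (fun x => (10 * x) % 11)

theorem mk_slKey_mul {m a b : List ℕ} (hm : detOK m = true) (ha : detOK a = true)
    (hb : detOK b = true) (h : prodOK m a b = true) :
    (QuotientGroup.mk (slKey m) : Matrix.ProjectiveSpecialLinearGroup (Fin 2) (ZMod 11)) =
      QuotientGroup.mk (slKey a) * QuotientGroup.mk (slKey b) := by
  rw [← QuotientGroup.mk_mul, QuotientGroup.eq]
  simp only [prodOK, Bool.or_eq_true, beq_iff_eq] at h
  have hsgn : slKey a * slKey b = slKey m ∨ slKey a * slKey b = -slKey m := by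
    have h11 : (10 : ZMod 11) = -1 := by decide +kernel
    rcases h with rfl | rfl
    · left
      apply Subtype.ext
      rw [Matrix.SpecialLinearGroup.coe_mul, coe_slKey ha, coe_slKey hb, coe_slKey hm]
      ext i j
      fin_cases i <;> fin_cases j <;> simp [Matrix.mul_apply, Fin.sum_univ_two]
    · right
      apply Subtype.ext
      rw [Matrix.SpecialLinearGroup.coe_mul, coe_slKey ha, coe_slKey hb,
        Matrix.SpecialLinearGroup.coe_neg, coe_slKey hm]
      ext i j
      fin_cases i <;> fin_cases j <;>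
        simp [Matrix.mul_apply, Fin.sum_univ_two, h11]
  rcases hsgn with h | h
  · rw [h, inv_mul_cancel]; exact one_mem _
  · rw [h, show (slKey m)⁻¹ * -slKey m = -1 by simp, Matrix.SpecialLinearGroup.mem_center_iff]
    exact ⟨-1, by norm_num, by
      ext i j
      fin_cases i <;> fin_cases j <;> simp⟩

theorem mk_slKey_ne_one {k : List ℕ} (hd : detOK k = true)
    (hne : (k.getD 1 0 % 11 ≠ 0 ∨ k.getD 2 0 % 11 ≠ 0) ∨ k.getD 0 0 % 11 ≠ k.getD 3 0 % 11) :
    (QuotientGroup.mk (slKey k) : Matrix.ProjectiveSpecialLinearGroup (Fin 2) (ZMod 11)) ≠ 1 := by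
  intro h
  rw [QuotientGroup.eq_one_iff, Matrix.SpecialLinearGroup.mem_center_iff] at h
  obtain ⟨r, -, hr⟩ := h
  rw [coe_slKey hd] at hr
  have e := fun a b => congrFun (congrFun hr a) b
  have e01 : (0 : ZMod 11) = (k.getD 1 0 : ZMod 11) := by simpa using e 0 1
  have e10 : (0 : ZMod 11) = (k.getD 2 0 : ZMod 11) := by simpa using e 1 0
  have e00 : r = (k.getD 0 0 : ZMod 11) := by simpa using e 0 0
  have e11 : r = (k.getD 3 0 : ZMod 11) := by simpa using e 1 1
  rcases hne with (hne | hne) | hne <;> apply hne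
  · exact Nat.mod_eq_zero_of_dvd ((ZMod.natCast_eq_zero_iff _ 11).1 e01.symm)
  · exact Nat.mod_eq_zero_of_dvd ((ZMod.natCast_eq_zero_iff _ 11).1 e10.symm)
  · exact (ZMod.natCast_eq_natCast_iff' _ _ 11).1 (e00.symm.trans e11)

end CfsgLib.MathieuIso
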