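import Cfsg.Agent.MathieuIso.Groups
import Cfsg.Agent.MathieuIso.Keys
import Cfsg.Agent.SL2.Basic

/-! The point stabiliser of M11 outside the dodecad. -/

set_option autoImplicit false

open scoped Pointwise

namespace CfsgLib.MathieuIso

open Cfsg CfsgLib.Mathieu

theorem ok660 : cert660.ok = true := by decide +kernel

theorem len660 : cert660.n = 660 := by decide +kernel

theorem nonempty_equiv_660 :
    Nonempty (fixPt Spor.M11 (i2p 5) ≃* Matrix.ProjectiveSpecialLinearGroup (Fin 2) (ZMod 11)) := by
  have : Fact (Nat.Prime 11) := ⟨by norm_num⟩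
  refine Cert.nonempty_mulEquiv (c := cert660)
    (fun i => QuotientGroup.mk (slKey (cert660Img.get i))) ok660 gens660
    (card_fix_out.trans len660.symm).le ?_ ?_ ?_ ?_
  · show (QuotientGroup.mk (slKey (cert660Img.get 0)) : Matrix.ProjectiveSpecialLinearGroup (Fin 2) (ZMod 11)) = 1
    rw [QuotientGroup.eq_one_iff]
    have h0 : slKey (cert660Img.get 0) = 1 := by
      rw [show cert660Img.get 0 = [1, 0, 0, 1] by decide +kernel]
      apply Subtype.ext
      rw [coe_slKey (by decide +kernel)]
      ext i j
      fin_cases i <;> fin_cases j <;> simp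
    rw [h0]; exact one_mem _
  · intro g hg i hi
    have hall : (List.range cert660.gens.length).all (fun g => (List.range cert660.n).all
        fun i => detOK (cert660Img.get (cert660.mt g i)) && detOK (cert660Img.get i) &&
          detOK (cert660Img.get (cert660.mt g 0)) &&
          prodOK (cert660Img.get (cert660.mt g i)) (cert660Img.get (cert660.mt g 0))
            (cert660Img.get i)) = true := by decide +kernel
    simp only [List.all_eq_true, List.mem_range, Bool.and_eq_true] at hall
    obtain ⟨⟨⟨h1, h2⟩, h3⟩, h4⟩ := hall g hg i hi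
    exact mk_slKey_mul h1 h3 h2 h4
  · intro i hi h
    have hall : (List.range cert660.n).all (fun i => (i == 0) ||
        (detOK (cert660Img.get i) && (((cert660Img.get i).getD 1 0) % 11 != 0 ||
          ((cert660Img.get i).getD 2 0) % 11 != 0 ||
          ((cert660Img.get i).getD 0 0) % 11 != ((cert660Img.get i).getD 3 0) % 11))) = true := by
      decide +kernel
    generalize hk : cert660Img.get i = k at h
    have hi' := List.all_eq_true.1 hall i (List.mem_range.2 hi)
    rw [hk] at hi'
    simp only [Bool.or_eq_true, beq_iff_eq, Bool.and_eq_true, bne_iff_ne] at hi'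
    exact hi'.resolve_right fun h' => mk_slKey_ne_one h'.1 h'.2 h
  · have h := CfsgLib.SL2.card_PSL_odd (F := ZMod 11) (by decide)
    rw [ZMod.card] at h
    rw [len660]
    omega

end CfsgLib.MathieuIso
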