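import Cfsg.Agent.MathieuIso.QuartetData
import Cfsg.Agent.MathieuIso.IsoSmall
import Cfsg.Prelude.Def_SporadicCombinatorics

/-!
Quartets of a dodecad: one orbit under the dodecad stabiliser, and the stabiliser of a quartet.
-/

set_option autoImplicit false

open scoped Pointwise symmDiff

namespace CfsgLib.MathieuIso

open Cfsg CfsgLib.Mathieu CfsgLib.Golay

theorem rep_seedsQ : ∀ t ∈ idTab :: seedsQ, Rep Spor.M12 t := by
  intro t ht
  rcases List.mem_cons.1 ht with rfl | ht
  · exact ⟨1, Subgroup.one_mem _, toTab_one⟩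
  · have h : seedsQ.all (fun t => chain12.any fun l => l.2.1.contains t) = true := by decide +kernel
    simp only [List.all_eq_true, List.any_eq_true, List.contains_iff_mem] at h
    obtain ⟨l, hl, hlt⟩ := h t ht
    exact chain12_rep l hl t hlt

/-- Tables known to lie in M12. -/
def tabsQ : List (List ℕ) := (idTab :: seedsQ) ++ progQ.map (fun e => e.2.2.2)

theorem rep_tabsQ {t : List ℕ} (ht : tabsQ.contains t = true) : Rep Spor.M12 t :=
  rep_of_progOK _ progQ _ rep_seedsQ (by decide +kernel) t (List.contains_iff_mem.1 ht)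

/-- A mask is carried to another one by a table. -/
def maskMaps (t : List ℕ) (m m' : ℕ) : Bool :=
  (List.range 24).all fun i => m.testBit i == m'.testBit (app t i)

theorem smul_ofMask_of_maps (g : Equiv.Perm GolayPt) {m m' : ℕ}
    (h : maskMaps (toTab g) m m' = true) : g • ofMask m = ofMask m' := by
  ext p
  simp only [maskMaps, List.all_eq_true, List.mem_range, beq_iff_eq] at h
  rw [← Finset.inv_smul_mem_iff, Equiv.Perm.smul_def, mem_ofMask_iff, mem_ofMask_iff,
    h _ (p2i_lt _), app_toTab', show g (g⁻¹ p) = p from g.apply_symm_apply p]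

/-- A set of triples from a list of masks. -/
def quartSet (l : List ℕ) : Finset (Finset GolayPt) := (l.map ofMask).toFinset

/-- The standard quartet. -/
def stdQuartet : Finset (Finset GolayPt) := quartSet (quartsQ.getD 0 [])

theorem smul_mem_quartets {g : Equiv.Perm GolayPt} (hg : g ∈ M24) {d : Finset GolayPt}
    {Q : Finset (Finset GolayPt)} (hQ : Q ∈ quartets d) : g • Q ∈ quartets (g • d) := by
  obtain ⟨h4, h3, hh⟩ := hQ
  refine ⟨by rw [Finset.card_smul_finset]; exact h4, ?_, ?_⟩
  · intro t ht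
    obtain ⟨u, hu, rfl⟩ := Finset.mem_smul_finset.1 ht
    exact ⟨by rw [Finset.card_smul_finset]; exact (h3 u hu).1,
      Finset.smul_finset_subset_smul_finset (h3 u hu).2⟩
  · intro t ht s hs hts
    obtain ⟨u, hu, rfl⟩ := Finset.mem_smul_finset.1 ht
    obtain ⟨v, hv, rfl⟩ := Finset.mem_smul_finset.1 hs
    obtain ⟨hc, o, ho, hod⟩ := hh u hu v hv (fun e => hts (by rw [e]))
    refine ⟨by rw [← Finset.smul_finset_union, Finset.card_smul_finset]; exact hc,
      g • o, smul_mem_octads hg ho, ?_⟩
    rw [← Finset.smul_finset_inter, hod, Finset.smul_finset_union]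

theorem disjoint_of_quartet {d : Finset GolayPt} {Q : Finset (Finset GolayPt)}
    (hQ : Q ∈ quartets d) {t u : Finset GolayPt} (ht : t ∈ Q) (hu : u ∈ Q) (hne : t ≠ u) :
    Disjoint t u := by
  rw [← Finset.card_union_eq_card_add_card, (hQ.2.2 t ht u hu hne).1, (hQ.2.1 t ht).1,
    (hQ.2.1 u hu).1]

theorem quartets_std {Q : Finset (Finset GolayPt)} (hQ : Q ∈ quartets (ofMask maskD0))
    (h7 : ofMask 7 ∈ Q) : ∃ l ∈ quartsQ, Q = quartSet l := by
  have hall : allSpan (fun w => !((pop w == 8) && (pop (w &&& maskD0) == 6) &&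
      (w &&& maskD0 &&& 7 == 7)) || partnersQ.contains ((w &&& maskD0) ^^^ 7)) basisMasks 0 = true := by
    decide +kernel
  have hcard6 : ∀ u ∈ Q, u ≠ ofMask 7 → toMask u ∈ partnersQ := by
    intro u hu hne
    obtain ⟨h6, o, ho, hod⟩ := hQ.2.2 _ h7 u hu (Ne.symm hne)
    have hdisj : Disjoint (ofMask 7) u := disjoint_of_quartet hQ h7 hu (Ne.symm hne)
    rw [mem_octads_iff_mask] at ho
    have hm : toMask (ofMask 7 ∪ u) = toMask o &&& maskD0 := by
      rw [← hod, toMask_inter, toMask_ofMask (by decide +kernel)]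
    have hsym : (ofMask 7 ∪ u) ∆ ofMask 7 = u := by
      ext x
      rw [Finset.mem_symmDiff, Finset.mem_union]
      constructor
      · rintro (⟨h1 | h1, h2⟩ | ⟨h1, h2⟩)
        · exact absurd h1 h2
        · exact h1
        · exact absurd (Or.inl h1) h2
      · exact fun h1 => Or.inl ⟨Or.inr h1, fun h2 => Finset.disjoint_left.1 hdisj h2 h1⟩
    have := of_allSpan hall ho.1
    simp only [ho.2, beq_self_eq_true, Bool.true_and, Bool.or_eq_true, Bool.not_eq_true',
      Bool.and_eq_false_iff, beq_eq_false_iff_ne, List.contains_iff_mem] at this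
    rcases this with (h | h) | h
    · exact absurd (by rw [← hm, ← card_eq_pop, h6]) h
    · refine absurd ?_ h
      rw [← hm]
      have := (subset_iff_land (s := ofMask 7) (t := ofMask 7 ∪ u)).1 Finset.subset_union_left
      rw [toMask_ofMask (by decide +kernel : 7 < 2 ^ 24)] at this
      rw [Nat.land_comm]; exact this
    · rw [← hm, ← toMask_ofMask (by decide +kernel : 7 < 2 ^ 24), ← toMask_symmDiff] at h
      rwa [toMask_ofMask (by decide +kernel : 7 < 2 ^ 24), hsym] at h
  obtain ⟨a, b, c, hab, hac, hbc, habc⟩ := Finset.card_eq_three.1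
    (show (Q.erase (ofMask 7)).card = 3 by rw [Finset.card_erase_of_mem h7, hQ.1])
  have hmem : ∀ u ∈ ({a, b, c} : Finset (Finset GolayPt)), u ∈ Q ∧ u ≠ ofMask 7 := by
    intro u hu
    rw [← habc, Finset.mem_erase] at hu
    exact ⟨hu.2, hu.1⟩
  obtain ⟨haQ, ha7⟩ := hmem a (by simp)
  obtain ⟨hbQ, hb7⟩ := hmem b (by simp)
  obtain ⟨hcQ, hc7⟩ := hmem c (by simp)
  have hQeq : Q = quartSet [7, toMask a, toMask b, toMask c] := by
    rw [← Finset.insert_erase h7, habc]
    simp [quartSet]
  have hfin : partnersQ.all (fun A => partnersQ.all fun B => partnersQ.all fun C =>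
      !((A &&& B == 0) && (A &&& C == 0) && (B &&& C == 0)) || quartsQ.any fun l =>
        (l.all fun x => [7, A, B, C].contains x) && ([7, A, B, C].all fun x => l.contains x)) = true := by
    decide +kernel
  simp only [List.all_eq_true, Bool.or_eq_true, Bool.not_eq_true', Bool.and_eq_false_iff,
    beq_eq_false_iff_ne, List.any_eq_true, Bool.and_eq_true, List.contains_iff_mem] at hfin
  rcases hfin _ (hcard6 a haQ ha7) _ (hcard6 b hbQ hb7) _ (hcard6 c hcQ hc7) with
    ((h | h) | h) | ⟨l, hl, h1, h2⟩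
  · exact absurd (disjoint_iff_land.1 (disjoint_of_quartet hQ haQ hbQ hab)) h
  · exact absurd (disjoint_iff_land.1 (disjoint_of_quartet hQ haQ hcQ hac)) h
  · exact absurd (disjoint_iff_land.1 (disjoint_of_quartet hQ hbQ hcQ hbc)) h
  · refine ⟨l, hl, hQeq.trans ?_⟩
    ext x
    simp only [quartSet, List.mem_toFinset, List.mem_map]
    constructor
    · rintro ⟨y, hy, rfl⟩; exact ⟨y, h2 y hy, rfl⟩
    · rintro ⟨y, hy, rfl⟩; exact ⟨y, h1 y hy, rfl⟩

theorem exists_map_stdQuartet {l : List ℕ} (hl : l ∈ quartsQ) :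
    ∃ g ∈ Spor.M12, g • stdQuartet = quartSet l := by
  have hall : (List.range quartsQ.length).all (fun i =>
      tabsQ.contains (mapsQ.getD i []) && ((quartsQ.getD 0 []).all fun m =>
        (quartsQ.getD i []).any fun m' => maskMaps (mapsQ.getD i []) m m') &&
      ((quartsQ.getD i []).all fun m' =>
        (quartsQ.getD 0 []).any fun m => maskMaps (mapsQ.getD i []) m m')) = true := by
    decide +kernel
  simp only [List.all_eq_true, List.mem_range, Bool.and_eq_true, List.any_eq_true] at hall
  obtain ⟨i, hi, rfl⟩ := List.getElem_of_mem hl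
  obtain ⟨⟨ht, h1⟩, h2⟩ := hall i hi
  rw [List.getD_eq_getElem _ _ hi] at h1 h2
  obtain ⟨g, hg, hgt⟩ := rep_tabsQ ht
  refine ⟨g, hg, ?_⟩
  ext x
  simp only [stdQuartet, quartSet, Finset.mem_smul_finset, List.mem_toFinset, List.mem_map]
  constructor
  · rintro ⟨_, ⟨m, hm, rfl⟩, rfl⟩
    obtain ⟨m', hm', hmm⟩ := h1 m hm
    exact ⟨m', hm', (smul_ofMask_of_maps g (hgt ▸ hmm)).symm⟩
  · rintro ⟨m', hm', rfl⟩
    obtain ⟨m, hm, hmm⟩ := h2 m' hm'
    exact ⟨_, ⟨m, hm, rfl⟩, smul_ofMask_of_maps g (hgt ▸ hmm)⟩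

/-- Every quartet of every dodecad is an image of the standard one. -/
theorem exists_quartet_conj {d : Finset GolayPt} (hd : d ∈ dodecads)
    {Q : Finset (Finset GolayPt)} (hQ : Q ∈ quartets d) :
    ∃ c ∈ M24, c • Spor.squareDodecad = d ∧ c • stdQuartet = Q := by
  obtain ⟨c₀, hc₀, hc₀d⟩ := exists_map_squareDodecad hd
  obtain ⟨t, ht⟩ := Finset.card_pos.1 (show 0 < Q.card by rw [hQ.1]; norm_num)
  obtain ⟨htc, htd⟩ := hQ.2.1 t ht
  obtain ⟨s, hs, hsc⟩ := Finset.exists_subset_card_eq
    (show 2 ≤ (d \ t).card by rw [Finset.card_sdiff_of_subset htd, hd.2, htc]; norm_num)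
  obtain ⟨b, hb, hmap⟩ := exists_map_five_dodecad hd
    (xs := [0, 1, 2, 3, 4].map fun i => c₀ (i2p i)) (ys := t.toList ++ s.toList) rfl
    (by
      have : ([0, 1, 2, 3, 4].map i2p).Nodup := by decide +kernel
      simpa [List.map_map] using this.map c₀.injective)
    (by
      simp only [List.mem_map, forall_exists_index, and_imp, forall_apply_eq_imp_iff₂]
      intro i hi
      rw [← hc₀d, ← Equiv.Perm.smul_def, Finset.smul_mem_smul_finset_iff, mem_squareDodecad]
      revert i
      decide +kernel)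
    (by simp [htc, hsc])
    (List.nodup_append.2 ⟨t.nodup_toList, s.nodup_toList, fun x hx y hy e => by
      rw [Finset.mem_toList] at hx hy
      exact (Finset.mem_sdiff.1 (hs hy)).2 (e ▸ hx)⟩)
    (by
      intro x hx
      rcases List.mem_append.1 hx with hx | hx <;> rw [Finset.mem_toList] at hx
      exacts [htd hx, (Finset.mem_sdiff.1 (hs hx)).1])
  have htmap : (b * c₀) • ofMask 7 = t := by
    have h := congrArg (List.take 3) hmap
    rw [List.take_left' (show t.toList.length = 3 by simp [htc])] at h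
    ext x
    rw [← Finset.mem_toList (s := t), ← h,
      show ofMask 7 = {i2p 0, i2p 1, i2p 2} by decide +kernel]
    simp only [Finset.smul_finset_insert, Finset.smul_finset_singleton, Equiv.Perm.smul_def,
      Equiv.Perm.mul_apply]
    simp
  have hcd : (b * c₀) • Spor.squareDodecad = d := by rw [mul_smul, hc₀d]; exact hb.2
  have hbc : b * c₀ ∈ M24 := M24.mul_mem hb.1 hc₀
  have hQ' := smul_mem_quartets (M24.inv_mem hbc) hQ
  rw [inv_smul_eq_iff.2 hcd.symm, Mathieu.squareDodecad_eq] at hQ'
  obtain ⟨l, hl, hQl⟩ := quartets_std hQ' (by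
    rw [← Finset.smul_mem_smul_finset_iff (b * c₀), smul_inv_smul, htmap]; exact ht)
  obtain ⟨m, hm, hml⟩ := exists_map_stdQuartet hl
  refine ⟨b * c₀ * m, M24.mul_mem hbc hm.1, ?_, ?_⟩
  · rw [mul_smul, show m • Spor.squareDodecad = _ from hm.2, hcd]
  · rw [mul_smul, hml, ← hQl, smul_inv_smul]

/-- The stabiliser of the standard quartet in M12. -/
def quartStab : Subgroup (Equiv.Perm GolayPt) :=
  Spor.M12 ⊓ MulAction.stabilizer (Equiv.Perm GolayPt) stdQuartet

/-- The member of the standard quartet through a point. -/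
def blockQ (i : ℕ) : ℕ := ((quartsQ.getD 0 []).find? fun m => m.testBit i).getD 0

theorem blockQ_spec : ∀ m ∈ quartsQ.getD 0 [], ∀ i < 24, m.testBit i = true → blockQ i = m := by
  decide +kernel

theorem quartStab_block {g : Equiv.Perm GolayPt} (hg : g ∈ quartStab) {i j : ℕ} (hi : i < 24)
    (hj : j < 24) (hiD : i ∈ listD0) (hij : (blockQ i).testBit j = true) :
    (blockQ (p2i (g (i2p i)))).testBit (p2i (g (i2p j))) = true := by
  have hmem : ∀ i ∈ listD0, blockQ i ∈ quartsQ.getD 0 [] ∧ (blockQ i).testBit i = true := by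
    decide +kernel
  obtain ⟨hm, hbit⟩ := hmem i hiD
  have hin : g • ofMask (blockQ i) ∈ stdQuartet := by
    rw [← (show g • stdQuartet = stdQuartet from hg.2)]
    exact Finset.smul_mem_smul_finset
      (List.mem_toFinset.2 (List.mem_map.2 ⟨_, hm, rfl⟩))
  rw [stdQuartet, quartSet, List.mem_toFinset, List.mem_map] at hin
  obtain ⟨m', hm', he⟩ := hin
  have hgi : ∀ k < 24, (blockQ i).testBit k = true → m'.testBit (p2i (g (i2p k))) = true := by
    intro k hk hkb
    rw [← mem_ofMask_iff, he, ← Equiv.Perm.smul_def, Finset.smul_mem_smul_finset_iff,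
      mem_ofMask_iff, p2i_i2p k hk]
    exact hkb
  rw [blockQ_spec m' hm' _ (p2i_lt _) (hgi i hi hbit)]
  exact hgi j hj hij

theorem card_quartStab_step (prev : List ℕ) (b n m : ℕ) (hb : b < 24) (hbD : b ∈ listD0)
    (hprev : ∀ i ∈ prev, i < 24) (hnb : b ∉ prev) (hprevD : ∀ i ∈ prev, i ∈ listD0)
    (hn : (listD0.filter fun c => decide (c ∉ prev) &&
      prev.all fun i => !(blockQ i).testBit b || (blockQ i).testBit c).length = n)
    (hrec : Nat.card (fixPts quartStab (prev ++ [b])) ≤ m) :
    Nat.card (fixPts quartStab prev) ≤ n * m := by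
  have h := card_le_step (fixPts quartStab prev) b
    (listD0.filter fun c => decide (c ∉ prev) &&
      prev.all fun i => !(blockQ i).testBit b || (blockQ i).testBit c) fun g hg => by
    obtain ⟨hgK, hF⟩ := mem_fixPts.1 hg
    simp only [List.mem_filter, List.all_eq_true, Bool.and_eq_true, decide_eq_true_eq,
      Bool.or_eq_true, Bool.not_eq_true']
    refine ⟨mem_M12_listD0 hgK.1 _ (by rwa [p2i_i2p b hb]), fun hc => hnb ?_, fun i hi => ?_⟩
    · have e := hF _ hc
      rw [i2p_p2i] at e
      rw [g.injective e, p2i_i2p b hb] at hc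
      exact hc
    · by_cases hib : (blockQ i).testBit b = true
      · right
        have := quartStab_block hgK (hprev i hi) hb (hprevD i hi) hib
        rwa [hF i hi, p2i_i2p i (hprev i hi)] at this
      · left; simpa using hib
  rw [show fixPt (fixPts quartStab prev) (i2p b) = fixPts quartStab (prev ++ [b]) by
    ext g
    simp only [Subgroup.mem_inf, mem_fixPts, MulAction.mem_stabilizer_iff, Equiv.Perm.smul_def,
      List.mem_append, List.mem_singleton, or_imp, forall_and, forall_eq, and_assoc]] at h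
  exact h.trans (hn ▸ Nat.mul_le_mul_left _ hrec)

/-- A fifth base point: the third point of the block of the point 3. -/
def baseW : List ℕ := listD0.filter fun i => decide (i ≠ 3) && (blockQ 3).testBit i

theorem card_quartStab : Nat.card quartStab ≤ 432 := by
  have hW : baseW.length = 2 := by decide +kernel
  have h5 : Nat.card (fixPts quartStab ([0, 1, 2, 3] ++ [baseW.getD 0 0] ++ [baseW.getD 1 0])) ≤ 1 := by
    refine le_of_eq ?_
    rw [Subgroup.card_eq_one, Subgroup.eq_bot_iff_forall]
    intro g hg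
    obtain ⟨hgK, hF⟩ := mem_fixPts.1 hg
    refine eq_one_of_fix_five hgK.1 (xs := [0, 1, 2, 3, baseW.getD 0 0].map i2p) rfl
      (by decide +kernel) (by intro x hx; rw [mem_squareDodecad]; revert x; decide +kernel) ?_
    simp only [List.mem_map, forall_exists_index, and_imp, forall_apply_eq_imp_iff₂]
    intro i hi
    exact hF i (List.mem_append_left _ (by simpa using hi))
  have h4 := card_quartStab_step ([0, 1, 2, 3] ++ [baseW.getD 0 0]) (baseW.getD 1 0) 1 1
    (by decide +kernel) (by decide +kernel) (by decide +kernel) (by decide +kernel)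
    (by decide +kernel) (by decide +kernel) h5
  have h3 := card_quartStab_step [0, 1, 2, 3] (baseW.getD 0 0) 2 _
    (by decide +kernel) (by decide +kernel) (by decide +kernel) (by decide +kernel)
    (by decide +kernel) (by decide +kernel) h4
  have h2 := card_quartStab_step [0, 1, 2] 3 9 _
    (by decide +kernel) (by decide +kernel) (by decide +kernel) (by decide +kernel)
    (by decide +kernel) (by decide +kernel) h3
  have h1 := card_quartStab_step [0, 1] 2 1 _
    (by decide +kernel) (by decide +kernel) (by decide +kernel) (by decide +kernel)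
    (by decide +kernel) (by decide +kernel) h2
  have h0 := card_quartStab_step [0] 1 2 _
    (by decide +kernel) (by decide +kernel) (by decide +kernel) (by decide +kernel)
    (by decide +kernel) (by decide +kernel) h1
  have h := card_quartStab_step [] 0 12 _
    (by decide +kernel) (by decide +kernel) (by decide +kernel) (by decide +kernel)
    (by decide +kernel) (by decide +kernel) h0
  exact h

theorem gensQ : ∀ t ∈ certQ.gens, Rep quartStab t := by
  intro t ht
  have hall : certQ.gens.all (fun t => tabsQ.contains t && ((quartsQ.getD 0 []).all fun m =>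
      (quartsQ.getD 0 []).any fun m' => maskMaps t m m')) = true := by decide +kernel
  simp only [List.all_eq_true, Bool.and_eq_true, List.any_eq_true] at hall
  obtain ⟨h1, h2⟩ := hall t ht
  obtain ⟨g, hg, rfl⟩ := rep_tabsQ h1
  refine ⟨g, ⟨hg, Finset.eq_of_subset_of_card_le ?_ (by rw [Finset.card_smul_finset])⟩, rfl⟩
  intro x hx
  obtain ⟨y, hy, rfl⟩ := Finset.mem_smul_finset.1 hx
  rw [stdQuartet, quartSet, List.mem_toFinset, List.mem_map] at hy ⊢
  obtain ⟨m, hm, rfl⟩ := hy
  obtain ⟨m', hm', hmm⟩ := h2 m hm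
  exact ⟨m', hm', (smul_ofMask_of_maps g hmm).symm⟩

/-- Structure of the stabiliser of the standard quartet. -/
theorem quartStab_structure :
    Nat.card quartStab = 432 ∧
    (∃ (N : Subgroup quartStab) (_ : N.Normal), Nat.card N = 9 ∧
      Nonempty (quartStab ⧸ N ≃* GL (Fin 2) (ZMod 3))) ∧
    ∀ q ∈ Spor.squareDodecad, ∃ g ∈ quartStab, g (i2p 0) = q := by
  have hok : certQ.ok = true := by decide +kernel
  have hn : Nat.card quartStab ≤ certQ.n := card_quartStab.trans (le_of_eq (by decide +kernel))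
  obtain ⟨hcard, -⟩ := Cert.exists_idx hok gensQ hn
  have hcard' : Nat.card quartStab = 432 := hcard.trans (by decide +kernel)
  refine ⟨hcard', ?_, fun q hq => ?_⟩
  · have hall : ∀ i < certQ.n, (matKey (quartetImg.get i)).det ≠ 0 := by decide +kernel
    have hcoe : ∀ i < certQ.n,
        ((glKey (quartetImg.get i) : GL (Fin 2) (ZMod 3)) : Matrix (Fin 2) (Fin 2) (ZMod 3)) =
          matKey (quartetImg.get i) := fun i hi => by rw [glKey, dif_pos (hall i hi)]; rfl
    have hlt : ∀ g < certQ.gens.length, ∀ i < certQ.n, certQ.mt g i < certQ.n :=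
      fun g hg i hi => (((Cert.facts hok).2.2.2.2) g hg i hi).1
    obtain ⟨Φ, -, hΦ⟩ := Cert.exists_hom (fun i => glKey (quartetImg.get i)) hok gensQ hn
      (by
        apply Units.ext
        rw [hcoe 0 (by decide +kernel), Units.val_one]
        decide +kernel)
      (by
        intro g hg i hi
        apply Units.ext
        rw [Units.val_mul, hcoe _ (hlt g hg i hi), hcoe i hi,
          hcoe _ (hlt g hg 0 (by decide +kernel))]
        have hmul : ∀ g < certQ.gens.length, ∀ i < certQ.n,
            matKey (quartetImg.get (certQ.mt g i)) =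
              matKey (quartetImg.get (certQ.mt g 0)) * matKey (quartetImg.get i) := by
          decide +kernel
        exact hmul g hg i hi)
    have hsurj : Function.Surjective Φ := by
      have hk : ∀ k : Fin 3 × Fin 3 × Fin 3 × Fin 3,
          (matKey [k.1, k.2.1, k.2.2.1, k.2.2.2]).det ≠ 0 → ∃ i : Fin 432,
            matKey (quartetImg.get i) = matKey [k.1, k.2.1, k.2.2.1, k.2.2.2] := by
        decide +kernel
      intro A
      set M : Matrix (Fin 2) (Fin 2) (ZMod 3) := (A : Matrix (Fin 2) (Fin 2) (ZMod 3)) with hM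
      have hMk : matKey [(M 0 0).val, (M 0 1).val, (M 1 0).val, (M 1 1).val] = M := by
        ext i j
        fin_cases i <;> fin_cases j <;> simp [matKey]
      obtain ⟨i, hi⟩ := hk (⟨_, ZMod.val_lt (M 0 0)⟩, ⟨_, ZMod.val_lt (M 0 1)⟩,
        ⟨_, ZMod.val_lt (M 1 0)⟩, ⟨_, ZMod.val_lt (M 1 1)⟩) (by
          rw [hMk]
          exact ((Matrix.isUnit_iff_isUnit_det _).1 A.isUnit).ne_zero)
      have hin : (i : ℕ) < certQ.n := lt_of_lt_of_eq i.2 (by decide +kernel)
      obtain ⟨x, -, hx⟩ := hΦ i hin
      exact ⟨x, Units.ext (by rw [hx, hcoe i hin, hi, hMk])⟩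
    refine ⟨Φ.ker, inferInstance, ?_, ⟨QuotientGroup.quotientKerEquivOfSurjective Φ hsurj⟩⟩
    have h1 := Subgroup.card_eq_card_quotient_mul_card_subgroup Φ.ker
    haveI : Fact (Nat.Prime 3) := ⟨Nat.prime_three⟩
    rw [hcard', Nat.card_congr (QuotientGroup.quotientKerEquivOfSurjective Φ hsurj).toEquiv,
      Matrix.card_GL_field, ZMod.card] at h1
    norm_num [Fin.prod_univ_two] at h1
    have h2 : Nat.card Φ.ker = Nat.card {x : quartStab // Φ x = 1} := rfl
    omega
  · rw [mem_squareDodecad] at hq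
    have hall : listD0.all (fun j => transQ.any fun i =>
        decide (i < certQ.n) && (app (certQ.elt.get i) 0 == j)) = true := by decide +kernel
    simp only [List.all_eq_true, List.any_eq_true, Bool.and_eq_true, decide_eq_true_eq,
      beq_iff_eq] at hall
    obtain ⟨i, -, hi, hij⟩ := hall _ hq
    obtain ⟨g, hg, hgt⟩ := Cert.rep_elts hok gensQ i hi
    refine ⟨g, hg, p2i_injective ?_⟩
    rw [← hij, ← hgt, app_toTab g 0 (by norm_num)]

/-- The stabiliser of a quartet inside the dodecad stabiliser. -/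
theorem quartet_stabilizer {d : Finset GolayPt} (hd : d ∈ dodecads)
    {Q : Finset (Finset GolayPt)} (hQ : Q ∈ quartets d) :
    Nonempty (↥(MulAction.stabilizer M24 d ⊓ MulAction.stabilizer M24 Q) ≃* quartStab) ∧
    ∀ p ∈ d, ∀ q ∈ d, ∃ g ∈ (MulAction.stabilizer M24 d ⊓ MulAction.stabilizer M24 Q),
      ((g : M24) : Equiv.Perm GolayPt) p = q := by
  obtain ⟨c, hc, hcd, hcQ⟩ := exists_quartet_conj hd hQ
  have hK : ∀ k, k ∈ quartStab ↔ c * k * c⁻¹ ∈
      M24 ⊓ MulAction.stabilizer (Equiv.Perm GolayPt) d ⊓ MulAction.stabilizer _ Q := by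
    intro k
    rw [quartStab, M12_eq]
    simp only [Subgroup.mem_inf, MulAction.mem_stabilizer_iff, conj_mem_M24_iff hc,
      conj_fix_iff c k _ _ hcd]
    rw [conj_fix_iff c k stdQuartet Q hcQ]
  refine ⟨?_, fun p hp q hq => ?_⟩
  · obtain ⟨e⟩ := nonempty_conj_equiv c hK
    exact ⟨(equivOfMapEq (map_inf_stabilizer M24 d Q)).trans e.symm⟩
  · have hinv : ∀ p ∈ d, c⁻¹ p ∈ Spor.squareDodecad := fun p hp => by
      rw [← Equiv.Perm.smul_def, Finset.inv_smul_mem_iff, hcd]; exact hp
    obtain ⟨a, ha, hap⟩ := quartStab_structure.2.2 _ (hinv p hp)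
    obtain ⟨b, hb, hbq⟩ := quartStab_structure.2.2 _ (hinv q hq)
    obtain ⟨⟨h1, h2⟩, h3⟩ := (hK _).1 (quartStab.mul_mem hb (quartStab.inv_mem ha))
    refine ⟨⟨_, h1⟩, ⟨h2, h3⟩, ?_⟩
    show (c * (b * a⁻¹) * c⁻¹) p = q
    rw [Equiv.Perm.mul_apply, Equiv.Perm.mul_apply, Equiv.Perm.mul_apply, ← hap,
      show a⁻¹ (a (i2p 0)) = i2p 0 from a.symm_apply_apply _, hbq,
      show c (c⁻¹ q) = q from c.apply_symm_apply q]

end CfsgLib.MathieuIso
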